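import Cfsg.Agent.FiTwoTwoO7.Data
import Cfsg.Agent.OmegaSeven.Tools
import Cfsg.Agent.H29.CosetCert.Sound

/-!
The action of `Ω₇(3)` on 351 points.
-/

set_option autoImplicit false
set_option maxRecDepth 100000
set_option Elab.async false

namespace CfsgLib.FiTwoTwoO7

open H29.CosetCert CfsgLib.OmegaSeven Matrix

/-- A vector from a number in base three. -/
def exp3 (n : ℕ) : ℕ :=
  pk (n % 3) (n / 3 % 3) (n / 9 % 3) (n / 27 % 3) (n / 81 % 3) (n / 243 % 3) (n / 729 % 3)

/-- A number in base three from a vector. -/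
def code3 (v : ℕ) : ℕ := d0 v + 3 * d1 v + 9 * d2 v + 27 * d3 v + 81 * d4 v + 243 * d5 v + 729 * d6 v

/-- The vector of a point. -/
def vc (q : ℕ) : ℕ := exp3 (pick Data.vecT q)

/-- The point of a vector. -/
def ix (v : ℕ) : ℕ := pick Data.idxT (code3 v)

theorem vec_ok : allIn (fun q => okV (vc q) && Nat.beq (qf (vc q)) 2 && Nat.beq (ix (vc q)) q &&
    Nat.beq (ix (red (vc q + vc q))) q) 0 351 = true := by decide +kernel

theorem complete_ok : ((allV 7).all fun v => bif Nat.beq (qf v) 2 then Nat.blt (ix v) 351 &&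
    (Nat.beq v (vc (ix v)) || Nat.beq v (red (vc (ix v) + vc (ix v)))) else true) = true := by decide +kernel

theorem comm_ok : allIn (fun i =>
    commOk (Data.commH.getD i idM) (Data.commX.getD i idM) (Data.mats.getD i idM)) 0 8 = true := by decide +kernel

/-- The representative of a point. -/
def pv (q : Fin 351) : Ix → F := vec (vc q)

theorem allIn_get {p : ℕ → Bool} {n i : ℕ} (h : allIn p 0 n = true) (hi : i < n) : p i = true :=
  (allIn_iff p n 0).1 h i (Nat.zero_le _) (by omega)

theorem vc_spec (q : Fin 351) : okV (vc q) = true ∧ qf (vc q) = 2 ∧ ix (vc q) = q ∧ ix (red (vc q + vc q)) = q := by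
  have h := allIn_get vec_ok q.2
  simp only [Bool.and_eq_true, Nat.beq_eq] at h
  exact ⟨h.1.1.1, h.1.1.2, h.1.2, h.2⟩

theorem vec_neg {v : ℕ} (hv : okV v = true) : vec (red (v + v)) = -vec v := by
  rw [vec_red_add hv hv]
  funext i
  simp only [Pi.add_apply, Pi.neg_apply]
  generalize vec v i = a
  revert a
  decide

theorem ix_code_of_sign {w : Ix → F} {q : Fin 351} (h : w = pv q ∨ w = -pv q) : ix (code w) = q := by
  obtain ⟨hok, -, h1, h2⟩ := vc_spec q
  rcases h with h | h
  · rw [vec_inj (okV_code w) hok (by rw [vec_code]; exact h)]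
    exact h1
  · rw [vec_inj (okV_code w) (okV_red _) (by rw [vec_code, vec_neg hok]; exact h)]
    exact h2

theorem exists_point {w : Ix → F} (hw : Q w = 2) : ∃ q : Fin 351, w = pv q ∨ w = -pv q := by
  have h := List.all_eq_true.1 complete_ok _ (code_mem w)
  have hq : qf (code w) = 2 := cast_inj3 (qf_lt _) (by norm_num) (by rw [qf_cast, vec_code, hw]; rfl)
  rw [hq, Nat.beq_refl, cond_true] at h
  simp only [Bool.and_eq_true, Bool.or_eq_true, Nat.blt_eq, Nat.beq_eq] at h
  obtain ⟨hlt, h⟩ := h
  refine ⟨⟨_, hlt⟩, ?_⟩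
  rcases h with h | h
  · exact Or.inl ((vec_code w).symm.trans (congrArg CfsgLib.OmegaSeven.vec h))
  · exact Or.inr ((vec_code w).symm.trans ((congrArg CfsgLib.OmegaSeven.vec h).trans (vec_neg (vc_spec ⟨_, hlt⟩).1)))

theorem point_unique {w : Ix → F} {p q : Fin 351} (hp : w = pv p ∨ w = -pv p) (hq : w = pv q ∨ w = -pv q) :
    p = q := Fin.ext ((ix_code_of_sign hp).symm.trans (ix_code_of_sign hq))

theorem Q_img (g : Iso) (p : Fin 351) : Q (mat g *ᵥ pv p) = 2 := by
  rw [Q_mat, pv, ← qf_cast, (vc_spec p).2.1]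
  rfl

/-- The action on the points. -/
noncomputable def sigO : Cfsg.Omega F Q →* Equiv.Perm (Fin 351) :=
  MonoidHom.toHomPerm
    { toFun := fun g => (fun p => (exists_point (Q_img g p)).choose : Function.End (Fin 351))
      map_one' := funext fun p => by
        refine (point_unique (Or.inl ?_) (exists_point (Q_img ((1 : Cfsg.Omega F Q) : Iso) p)).choose_spec).symm
        rw [Subgroup.coe_one, mat_one, Matrix.one_mulVec]
        rfl
      map_mul' := fun g h => funext fun p => by
        have h1 := (exists_point (Q_img h p)).choose_spec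
        have h2 := (exists_point (Q_img g (exists_point (Q_img h p)).choose)).choose_spec
        refine point_unique (exists_point (Q_img ((g * h : Cfsg.Omega F Q) : Iso) p)).choose_spec ?_
        rw [Subgroup.coe_mul, mat_mul, ← Matrix.mulVec_mulVec]
        rcases h1 with h1 | h1 <;> rcases h2 with h2 | h2
        · exact Or.inl (by rw [h1]; exact h2)
        · exact Or.inr (by rw [h1]; exact h2)
        · exact Or.inr (by rw [h1, Matrix.mulVec_neg, h2]; rfl)
        · exact Or.inl (by rw [h1, Matrix.mulVec_neg, h2, neg_neg]; rfl) }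

/-- A matrix of a generator lies in the commutator subgroup. -/
theorem mats_inOm (i : Fin 8) : InOm (Data.mats.getD i idM) :=
  InOm.of_commOk (allIn_get (p := fun i => commOk (Data.commH.getD i idM) (Data.commX.getD i idM)
    (Data.mats.getD i idM)) comm_ok i.2)

end CfsgLib.FiTwoTwoO7
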