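import Cfsg.Agent.FiTwoTwoO7.Checks
import Cfsg.Agent.FiTwoTwoO7.Lines

/-!
The eight matrices induce the eight permutations.
-/

set_option autoImplicit false
set_option maxRecDepth 100000
set_option Elab.async false

namespace CfsgLib.FiTwoTwoO7

open H29.CosetCert CfsgLib.OmegaSeven

theorem act_ok : allIn (fun i => allIn (fun q => Nat.beq (ix (app (Data.mats.getD i idM) (vc q))) (img i q)) 0 351)
    0 8 = true := by decide +kernel

end CfsgLib.FiTwoTwoO7
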