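import Cfsg.Agent.H29.CosetCert.Fi22.Cert
import Cfsg.Agent.FiTwoTwoO7.Data

/-!
Kernel checks for the action of `⟨b, …, i⟩ ≤ Fi₂₂` on 351 table points.
-/

set_option autoImplicit false
set_option maxRecDepth 100000
set_option Elab.async false

namespace CfsgLib.FiTwoTwoO7

open H29.CosetCert

/-- A table point of the orbit. -/
def pt (q : ℕ) : ℕ := pick Data.ptT q
/-- The number of a table point. -/
def ptInv (x : ℕ) : ℕ := pick Data.invT x
/-- A permutation of the orbit. -/
def img (i q : ℕ) : ℕ := pick Data.imgT (351 * i + q)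
/-- A point outside the orbit. -/
def srt (n : ℕ) : ℕ := pick Data.srtT n
/-- The rank of a point outside the orbit. -/
def rnk (x : ℕ) : ℕ := pick Data.rankT x
/-- A sorted code. -/
def cde (n : ℕ) : ℕ := factAt Data.codeT n

/-- A bit of the code of a point. -/
def probeBit (w : List ℕ) (x : ℕ) : Bool := Fi22Data.orb2.testBit (runR Fi22Data.T w.reverse x)

/-- The code of a point. -/
def sepCode (x : ℕ) : ℕ := Data.probes.foldr (fun w r => (bif probeBit w x then 1 else 0) + 2 * r) 0

theorem pt_ok : allIn (fun q => Nat.blt (pt q) 3510 && Nat.beq (ptInv (pt q)) q &&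
    Data.ptSet.testBit (pt q)) 0 351 = true := by decide +kernel

theorem set_ok : allIn (fun x => bif Data.ptSet.testBit x then Nat.blt (ptInv x) 351 && Nat.beq (pt (ptInv x)) x
    else Nat.blt (rnk x) 3159 && Nat.beq (srt (rnk x)) x) 0 3510 = true := by decide +kernel

theorem img_ok : allIn (fun i => allIn (fun q => Nat.blt (img i q) 351 &&
    Nat.beq (Fi22Data.T (i + 1) (pt q)) (pt (img i q)) && Nat.beq (img i (img i q)) q) 0 351) 0 8 = true := by
  decide +kernel

theorem probes_ok : (Data.probes.all fun w => Data.ptSet.testBit (runR Fi22Data.T w 0)) = true := by decide +kernel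

theorem code_sorted : allIn (fun n => Nat.beq n 3158 || Nat.blt (cde n) (cde (n + 1))) 0 3159 = true := by
  decide +kernel

theorem code_ok : allIn (fun n => Nat.beq (sepCode (srt n)) (cde n)) 0 3159 = true := by decide +kernel

theorem gens_eq : Fi22Data.S.length = 9 := by decide +kernel

end CfsgLib.FiTwoTwoO7
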