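import Cfsg.Agent.FiTwoTwoO7.Checks
import Cfsg.Agent.FiTwoTwoO7.Act
import Cfsg.Agent.H29.CosetCert.Fi22Order.Cert
import Cfsg.Agent.S0292

/-!
The subgroup `⟨b, …, i⟩` of the presented group `Fi₂₂` is `PΩ₇(3)`.
-/

set_option autoImplicit false
set_option maxRecDepth 100000
set_option Elab.async false

namespace CfsgLib.FiTwoTwoO7

open H29.CosetCert CfsgLib.OmegaSeven Matrix

open H29.CosetCert.Fi22Cert (cert g)

attribute [local irreducible] pt ptInv img srt rnk cde pick factAt vc ix

/-- The presented group. -/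
abbrev Fi : Type := Cfsg.Spor.Fi22

/-- The subgroup generated by `b, …, i`. -/
noncomputable abbrev HO : Subgroup Fi := Subgroup.closure {e | ∃ i : Fin 8, g (i + 1) = e}

/-- A table point. -/
noncomputable def pr (h : Fi) (c : Fin 3510) : Fin 3510 := cert.ρ h c

theorem pr_mul (a b : Fi) (c : Fin 3510) : pr (a * b) c = pr a (pr b c) :=
  DFunLike.congr_fun (map_mul cert.ρ a b) c

theorem pr_one (c : Fin 3510) : pr 1 c = c := DFunLike.congr_fun (map_one cert.ρ) c

theorem pr_word (w : List ℕ) (c : Fin 3510) : (pr (w.map g).prod c).val = runR Fi22Data.T w c.val :=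
  Cert.prod_ρ_val cert w c

theorem pr_injective (h : Fi) : Function.Injective (pr h) := (cert.ρ h).injective

theorem allIn_get2 {p : ℕ → ℕ → Bool} {n m i j : ℕ} (h : allIn (fun i => allIn (p i) 0 n) 0 m = true) (hi : i < m)
    (hj : j < n) : p i j = true :=
  (allIn_iff (p i) n 0).1 ((allIn_iff _ m 0).1 h i (Nat.zero_le _) (by omega)) j (Nat.zero_le _) (by omega)

theorem pt_spec (q : Fin 351) : pt q < 3510 ∧ ptInv (pt q) = q ∧ Data.ptSet.testBit (pt q) = true := by
  have h := allIn_get pt_ok q.2
  simp only [Bool.and_eq_true, Nat.blt_eq, Nat.beq_eq] at h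
  exact ⟨h.1.1, h.1.2, h.2⟩

/-- A point of the orbit. -/
def ptF (q : Fin 351) : Fin 3510 := ⟨pt q, (pt_spec q).1⟩

theorem ptF_injective : Function.Injective ptF := fun a b h => by
  refine Fin.ext ?_
  rw [← (pt_spec a).2.1, ← (pt_spec b).2.1]
  exact congrArg ptInv (congrArg Fin.val h)

theorem ptF_surj {x : Fin 3510} (hx : Data.ptSet.testBit x.val = true) : ∃ q, ptF q = x := by
  have h := allIn_get set_ok x.2
  rw [hx, cond_true] at h
  simp only [Bool.and_eq_true, Nat.blt_eq, Nat.beq_eq] at h
  exact ⟨⟨_, h.1⟩, Fin.ext h.2⟩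

theorem rank_spec {x : Fin 3510} (hx : ¬ Data.ptSet.testBit x.val = true) : rnk x < 3159 ∧ srt (rnk x) = x := by
  have h := allIn_get set_ok x.2
  rw [Bool.eq_false_iff.2 hx, cond_false] at h
  simp only [Bool.and_eq_true, Nat.blt_eq, Nat.beq_eq] at h
  exact h

theorem img_spec (i : Fin 8) (q : Fin 351) :
    img i q < 351 ∧ Fi22Data.T (i + 1) (pt q) = pt (img i q) ∧ img i (img i q) = q := by
  have h := allIn_get2 (p := fun i q => Nat.blt (img i q) 351 &&
    Nat.beq (Fi22Data.T (i + 1) (pt q)) (pt (img i q)) && Nat.beq (img i (img i q)) q) img_ok i.2 q.2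
  simp only [Bool.and_eq_true, Nat.blt_eq, Nat.beq_eq] at h
  exact ⟨h.1.1, h.1.2, h.2⟩

/-- The permutation of a generator. -/
def gperm (i : Fin 8) : Equiv.Perm (Fin 351) :=
  ⟨fun q => ⟨img i q, (img_spec i q).1⟩, fun q => ⟨img i q, (img_spec i q).1⟩,
    fun q => Fin.ext (img_spec i q).2.2, fun q => Fin.ext (img_spec i q).2.2⟩

theorem gperm_val (i : Fin 8) (q : Fin 351) : (gperm i q).val = img i q := by
  simp only [gperm, Equiv.coe_fn_mk]

theorem gen_maps (i : Fin 8) (q : Fin 351) : pr (g (i + 1)) (ptF q) = ptF (gperm i q) := by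
  have h := pr_word [i.val + 1] (ptF q)
  simp only [List.map_cons, List.map_nil, List.prod_cons, List.prod_nil, mul_one] at h
  refine Fin.ext (h.trans ?_)
  rw [runR_cons]
  show Fi22Data.T (i + 1) (pt q) = pt (gperm i q).val
  rw [gperm_val]
  exact (img_spec i q).2.1

/-- The orbit is permuted. -/
def Perms (h : Fi) : Prop := ∃ π : Equiv.Perm (Fin 351), ∀ q, pr h (ptF q) = ptF (π q)

theorem perms_of_mem {h : Fi} (hh : h ∈ HO) : Perms h := by
  haveI := H29.CosetCert.Fi22Ord.finite_card.1
  rw [← Subgroup.mem_toSubmonoid, Subgroup.closure_toSubmonoid_of_finite] at hh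
  induction hh using Submonoid.closure_induction with
  | mem e he =>
    obtain ⟨i, rfl⟩ := he
    exact ⟨gperm i, gen_maps i⟩
  | one => exact ⟨1, fun q => pr_one _⟩
  | mul a b _ _ ha hb =>
    obtain ⟨π, hπ⟩ := ha
    obtain ⟨σ, hσ⟩ := hb
    exact ⟨π * σ, fun q => by rw [pr_mul, hσ, hπ]; rfl⟩

/-- The action of the subgroup on the orbit. -/
noncomputable def sigH : HO →* Equiv.Perm (Fin 351) :=
  MonoidHom.mk' (fun h => (perms_of_mem h.2).choose) fun a b => Equiv.ext fun q => ptF_injective <| by
    rw [← (perms_of_mem (a * b).2).choose_spec q, Subgroup.coe_mul, pr_mul, (perms_of_mem b.2).choose_spec q,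
      (perms_of_mem a.2).choose_spec]
    rfl

theorem sigH_spec (h : HO) (q : Fin 351) : pr h (ptF q) = ptF (sigH h q) := (perms_of_mem h.2).choose_spec q

theorem sigH_gen (i : Fin 8) (hi : g (i + 1) ∈ HO) : sigH ⟨g (i + 1), hi⟩ = gperm i :=
  Equiv.ext fun q => ptF_injective (((sigH_spec ⟨g (i + 1), hi⟩ q).symm).trans (gen_maps i q))

theorem stab_maps {y : Fi} (hy : y ∈ Fi22Cert.H) (x : Fin 3510) :
    Fi22Data.orb2.testBit (pr y x).val = Fi22Data.orb2.testBit x.val := by
  haveI := H29.CosetCert.Fi22Ord.finite_card.1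
  have key : ∀ y : Fi, y ∈ Fi22Cert.H → ∀ x : Fin 3510, Fi22Data.orb2.testBit x.val = true →
      Fi22Data.orb2.testBit (pr y x).val = true := by
    intro y hy
    rw [← Subgroup.mem_toSubmonoid, Subgroup.closure_toSubmonoid_of_finite] at hy
    induction hy using Submonoid.closure_induction with
    | mem e he =>
      simp only [Set.mem_setOf_eq, List.mem_map] at he
      obtain ⟨r, hr, rfl⟩ := he
      obtain ⟨i, hi, rfl⟩ := List.mem_iff_getElem.1 hr
      intro x hx
      have h := allIn_get Fi22Data.orb2_inv x.2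
      rw [hx, cond_true] at h
      have h2 := allIn_get h hi
      rw [List.getD_eq_getElem _ _ hi] at h2
      rw [pr_word]
      exact h2
    | one => exact fun x hx => by rw [pr_one]; exact hx
    | mul a b _ _ ha hb => exact fun x hx => by rw [pr_mul]; exact ha _ (hb x hx)
  rw [Bool.eq_iff_iff]
  refine ⟨fun hx => ?_, key y hy x⟩
  have := key _ (inv_mem hy) _ hx
  rwa [← pr_mul, inv_mul_cancel, pr_one] at this

theorem mem_of_fix {y : Fi} (h : pr y ⟨0, by norm_num⟩ = ⟨0, by norm_num⟩) : y ∈ Fi22Cert.H := by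
  have h1 : cert.toPt (y : Fi ⧸ Fi22Cert.H) = cert.toPt ((1 : Fi) : Fi ⧸ Fi22Cert.H) := by
    rw [Cert.toPt_mk, Cert.toPt_mk, map_one, Equiv.Perm.one_apply]
    exact h
  have h2 := Function.LeftInverse.injective cert.ofPt_toPt h1
  rw [QuotientGroup.eq, mul_one] at h2
  exact inv_inv y ▸ inv_mem h2

theorem rev_prod : ∀ w : List ℕ, (w.reverse.map g).prod * (w.map g).prod = 1
  | [] => by simp
  | x :: w => by
    rw [List.reverse_cons, List.map_append, List.prod_append, List.map_cons, List.prod_cons]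
    simp only [List.map_cons, List.map_nil, List.prod_cons, List.prod_nil, mul_one]
    rw [mul_assoc, ← mul_assoc (g x) (g x), show g x * g x = 1 from cert.g_sq x, one_mul, rev_prod w]

theorem code_eq {n : ℕ} (hn : n < 3159) : sepCode (srt n) = cde n :=
  Nat.eq_of_beq_eq_true (allIn_get (p := fun n => Nat.beq (sepCode (srt n)) (cde n)) code_ok hn)

theorem sigH_injective : Function.Injective sigH := by
  rw [injective_iff_map_eq_one]
  intro k hk
  have horb : ∀ x : Fin 3510, Data.ptSet.testBit x.val = true → pr k x = x := by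
    intro x hx
    obtain ⟨q, rfl⟩ := ptF_surj hx
    rw [sigH_spec, hk, Equiv.Perm.one_apply]
  have hcode : ∀ x : Fin 3510, sepCode (pr k x).val = sepCode x.val := by
    intro x
    unfold sepCode
    have hw := List.all_eq_true.1 probes_ok
    generalize hP : Data.probes = P at hw ⊢
    clear hP
    induction P with
    | nil => rfl
    | cons w P ih =>
      rw [List.foldr_cons, List.foldr_cons, ih fun v hv => hw v (List.mem_cons_of_mem _ hv)]
      have h1 := hw w List.mem_cons_self
      set gw := (w.map g).prod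
      set gi := (w.reverse.map g).prod
      have hgi : gi * gw = 1 := rev_prod w
      have hp : (pr gw ⟨0, by norm_num⟩).val = runR Fi22Data.T w 0 := pr_word w _
      have hfix := horb (pr gw ⟨0, by norm_num⟩) (by rw [hp]; exact h1)
      have hmem : gi * k * gw ∈ Fi22Cert.H := mem_of_fix (by
        rw [pr_mul, pr_mul, hfix, ← pr_mul, hgi, pr_one])
      have hbit : probeBit w (pr k x).val = probeBit w x.val := by
        show Fi22Data.orb2.testBit _ = Fi22Data.orb2.testBit _
        rw [← pr_word w.reverse, ← pr_word w.reverse]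
        rw [show pr gi (pr k x) = pr (gi * k * gw) (pr gi x) by
          rw [← pr_mul, ← pr_mul]
          congr 1
          rw [mul_assoc _ gw gi, mul_eq_one_comm.1 hgi, mul_one]]
        exact stab_maps hmem _
      rw [hbit]
  refine Subtype.ext (H29.CosetCert.Fi22Ord.injective_card.1 ?_)
  rw [OneMemClass.coe_one, map_one]
  refine Equiv.ext fun (x : Fin 3510) => ?_
  show pr k x = x
  by_cases hx : Data.ptSet.testBit x.val = true
  · exact horb x hx
  by_cases hx' : Data.ptSet.testBit (pr k x).val = true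
  · exact pr_injective k (horb _ hx')
  obtain ⟨hr, er⟩ := rank_spec hx
  obtain ⟨hr', er'⟩ := rank_spec hx'
  have hmono : StrictMonoOn cde (Set.Iio 3159) := by
    refine strictMonoOn_of_lt_succ Set.ordConnected_Iio ?_
    intro n _ hn hn'
    rw [Nat.succ_eq_succ, Set.mem_Iio] at hn'
    have h := allIn_get code_sorted (Set.mem_Iio.1 hn)
    simp only [Bool.or_eq_true, Nat.beq_eq, Nat.blt_eq] at h
    exact h.resolve_left (by omega)
  have hc : cde (rnk (pr k x).val) = cde (rnk x.val) := by
    have e1 := code_eq hr'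
    have e2 := code_eq hr
    rw [er'] at e1
    rw [er] at e2
    rw [← e1, ← e2]
    exact hcode x
  refine Fin.ext ?_
  rw [← er', hmono.injOn (Set.mem_Iio.2 hr') (Set.mem_Iio.2 hr) hc, er]

theorem card_HO : Nat.card HO = 4585351680 := by
  have h := HO.card_mul_index
  have hHO : HO = Fi22OCert.H := by
    show Subgroup.closure _ = Subgroup.closure _
    congr 1
    ext e
    simp [Fi22OData.S, Fi22OCert.g, g, genAt, Fin.exists_fin_succ, eq_comm]
  rw [hHO, Fi22OCert.cert.index_eq, show Fi22OCert.cert.n = 14080 from rfl,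
    H29.CosetCert.Fi22Ord.injective_card.2] at h
  rw [hHO]
  exact Nat.eq_of_mul_eq_mul_right (show 0 < 14080 by norm_num) (h.trans (by norm_num))

theorem center_eq_bot : Subgroup.center (Cfsg.Omega F Q) = ⊥ := by
  have h2 : (2 : F) ≠ 0 := by decide
  have hnd := CfsgLib.Forms.nondegenerate_quadOdd (F := F) 3 h2
  have hc : Nat.card (Subgroup.center (Cfsg.Omega F Q)) = 1 := by
    have h := CfsgLib.OrthOrder.card_center_eq_one hnd (by decide)
      (CfsgLib.OrthOrder.neg_one_notMem_of_odd h2 (by decide))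
    rwa [CfsgLib.Forms.coe_quadOdd] at h
  exact Subgroup.card_eq_one.1 hc

/-- The commutator subgroup is its own central quotient. -/
noncomputable def toPOmega : Cfsg.Omega F Q ≃* Cfsg.POmega F Q :=
  QuotientGroup.quotientBot.symm.trans (QuotientGroup.quotientMulEquivOfEq center_eq_bot.symm)

theorem card_Omega_eq : Nat.card (Cfsg.Omega F Q) = 4585351680 := by
  rw [Nat.card_congr toPOmega.toEquiv]
  have h : 2 * Nat.card (Cfsg.POmega F Q) = 2 * 4585351680 := by
    refine (Cfsg.Agent.S0292.result (F := F) (q := 3) (ZMod.card 3) (by decide) 3 le_rfl).trans ?_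
    simp [Finset.prod_range_succ]
  exact Nat.eq_of_mul_eq_mul_left two_pos h

theorem gperm_mem (i : Fin 8) : gperm i ∈ sigO.range := by
  obtain ⟨hok, k, hk, ek⟩ := mats_inOm i
  refine ⟨⟨k, hk⟩, Equiv.ext fun p => ?_⟩
  show (exists_point (Q_img k p)).choose = gperm i p
  have h := (exists_point (Q_img k p)).choose_spec
  refine Fin.ext ?_
  rw [← ix_code_of_sign h, gperm_val]
  have hact := allIn_get2 (p := fun i q => Nat.beq (ix (app (Data.mats.getD i idM) (vc q))) (img i q)) act_ok i.2 p.2
  rw [← Nat.eq_of_beq_eq_true hact, show mat k = toMat (Data.mats.getD i idM) from ek, pv,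
    ← vec_app hok (vc_spec p).1]
  congr 1
  exact vec_inj (okV_code _) (okV_app _ _) (vec_code _)

theorem subgroup_iso : Nonempty (HO ≃* Cfsg.POmega F Q) := by
  haveI : Finite (Cfsg.Omega F Q) := Nat.finite_of_card_ne_zero (by rw [card_Omega_eq]; norm_num)
  have hle : sigH.range ≤ sigO.range := by
    rintro _ ⟨⟨h, hh⟩, rfl⟩
    have key : HO ≤ (sigO.range.comap sigH).map HO.subtype := by
      rw [Subgroup.closure_le]
      rintro _ ⟨i, rfl⟩
      have hm : g (i + 1) ∈ HO := Subgroup.subset_closure ⟨i, rfl⟩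
      exact ⟨⟨g (i + 1), hm⟩, Subgroup.mem_comap.2 (by rw [sigH_gen i hm]; exact gperm_mem i), rfl⟩
    obtain ⟨y, hy, e⟩ := key hh
    rw [← show y = ⟨h, hh⟩ from Subtype.ext e]
    exact hy
  have hB : Nat.card sigH.range = 4585351680 := by
    rw [← card_HO, Nat.card_congr (MonoidHom.ofInjective sigH_injective).toEquiv]
  have hA : Nat.card sigO.range ≤ 4585351680 :=
    card_Omega_eq ▸ Nat.card_le_card_of_surjective _ sigO.rangeRestrict_surjective
  have heq := Subgroup.eq_of_le_of_card_ge hle (hA.trans hB.ge)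
  have hbij : Function.Bijective sigO.rangeRestrict := (Nat.bijective_iff_surjective_and_card _).2
    ⟨sigO.rangeRestrict_surjective, by rw [← heq, hB, card_Omega_eq]⟩
  exact ⟨(MonoidHom.ofInjective sigH_injective).trans
    (((MulEquiv.subgroupCongr heq).trans (MulEquiv.ofBijective _ hbij).symm).trans toPOmega)⟩

end CfsgLib.FiTwoTwoO7
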